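import Cfsg.Agent.Lib.Fi.Fi78b
import Cfsg.Agent.Lib.Fi.Fi78c
import Cfsg.Agent.Lib.Fi.Fi78d
import Cfsg.Agent.Lib.Spor.Fi22Pres

/-! The 78-dimensional representation of Fi22 over the field with 13 elements. -/

set_option autoImplicit false
set_option linter.all false
set_option maxRecDepth 100000
set_option Elab.async false

namespace CA.Fi78

open CA.CNet CA.CWord CA.CMat CA.PkM

theorem eqr : Fi22Rel.rels = l0 ++ (l1 ++ (l2 ++ (l3 ++ (l4 ++ (l5 ++ (l6 ++ (l7 ++ (l8 ++ (l9))))))))) := by decide +kernel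
theorem rels : lall Fi22Rel.rels (relOK 13 78 F) = true := by
  rw [eqr]; exact lall_app r0 (lall_app r1 (lall_app r2 (lall_app r3 (lall_app r4 (lall_app r5 (lall_app r6 (lall_app r7 (lall_app r8 (r9)))))))))

open CA.CPres Cfsg.Spor in
theorem main : ∃ f : Fi22 →* GL (Fin 78) (ZMod 13), Function.Injective f := by
  obtain ⟨g, h1, h2⟩ := exists_gl (p := 13) (n := 78) (by decide) (by decide) hF (rels := Fi22Rel.rels) (by decide +kernel)
    (by decide +kernel) (lall_iff.1 rels)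
  obtain ⟨φ, hφ⟩ := Fi22Rel.enc.hom _ g h2
  obtain ⟨e⟩ := Fi22Pres.equiv
  have := Fi22Pres.simple
  have : IsSimpleGroup Fi22 := e.isSimpleGroup
  refine ⟨φ, (MonoidHom.ker_eq_bot_iff φ).1 ((φ.normal_ker.eq_bot_or_eq_top).resolve_right fun h => ?_)⟩
  have h3 : φ (pg Fi22.edges Fi22.extra Fi22Rel.gen 0) = 1 := MonoidHom.mem_ker.1 (h ▸ Subgroup.mem_top _)
  have h4 := congrFun (congrFun (h1 0 (by decide)) 0) 1
  rw [← hφ 0 (by decide), h3, Units.val_one, Matrix.one_apply_ne (by decide)] at h4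
  have h5 : dg 1 (nth (F 0) 0 0) = 3 := by decide +kernel
  exact absurd (h4.trans (congrArg (fun n : ℕ => (n : ZMod 13)) h5)) (by decide)

end CA.Fi78
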