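import Cfsg.Agent.Lib.Fi.Fi78a

/-! The 78-dimensional representation of Fi22 over the field with 13 elements. -/

set_option autoImplicit false
set_option linter.all false
set_option maxRecDepth 100000
set_option Elab.async false

namespace CA.Fi78

open CA.CNet CA.CWord CA.CMat CA.PkM

theorem r7_0 : lall l7 (fun w => allR 26 fun i => rowOK 13 78 F w (Nat.add 0 i)) = true := by decide +kernel
theorem r7_1 : lall l7 (fun w => allR 26 fun i => rowOK 13 78 F w (Nat.add 26 i)) = true := by decide +kernel
theorem r7_2 : lall l7 (fun w => allR 26 fun i => rowOK 13 78 F w (Nat.add 52 i)) = true := by decide +kernel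
theorem r7 : lall l7 (relOK 13 78 F) = true := lall_iff.2 fun w hw => all3 (lall_iff.1 r7_0 w hw) (lall_iff.1 r7_1 w hw) (lall_iff.1 r7_2 w hw)
theorem r2 : lall l2 (relOK 13 78 F) = true := by decide +kernel
theorem r6 : lall l6 (relOK 13 78 F) = true := by decide +kernel

end CA.Fi78
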