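import Cfsg.Agent.Lib.Fi.FiW2

/-! An involution `d` with `C(d)/⟨d⟩ ≅ L`, `L` a 3-transposition group: lifting transpositions and involutions. -/

set_option autoImplicit false
set_option linter.unusedVariables false
set_option linter.unusedSectionVars false
set_option maxRecDepth 100000

namespace CA.FiZ
open Cfsg CA.Fi CA.CNet CA.CWord CA.H27Pres CA.Tr3Basic CA.Tr3Block CA.Tr3Prim CA.Tr3Rank CA.Tr3Iso

/-- `f` induces an isomorphism `C(d)/⟨d⟩ → L` -/
structure Cv {G L : Type*} [Group G] [Group L] (d : G) (f : G → L) : Prop where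
  sq : d * d = 1
  ne : d ≠ 1
  mul : ∀ {x y}, Commute d x → Commute d y → f (x * y) = f x * f y
  surj : ∀ l, ∃ x, Commute d x ∧ f x = l
  ker : ∀ {x}, Commute d x → (f x = 1 ↔ x = 1 ∨ x = d)

variable {G L : Type*} [Group G] [Group L] {d : G} {f : G → L} {D' : Set L}

theorem exists_cv (hd : orderOf d = 2)
    [((Subgroup.zpowers d).subgroupOf (Subgroup.centralizer ({d} : Set G))).Normal]
    (e : Subgroup.centralizer ({d} : Set G) ⧸ (Subgroup.zpowers d).subgroupOf (Subgroup.centralizer ({d} : Set G)) ≃* L) :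
    ∃ f : G → L, Cv d f ∧ ∀ x : Subgroup.centralizer ({d} : Set G), f x.1 = e x := by
  classical
  have m : ∀ {x}, Commute d x → x ∈ Subgroup.centralizer ({d} : Set G) := fun h =>
    Subgroup.mem_centralizer_singleton_iff.2 h.symm
  let f : G → L := fun x => if h : x ∈ Subgroup.centralizer ({d} : Set G) then
    e ((⟨x, h⟩ : Subgroup.centralizer ({d} : Set G)) : _ ⧸ _) else 1
  have hf : ∀ {x} (h : x ∈ Subgroup.centralizer ({d} : Set G)),
      f x = e ((⟨x, h⟩ : Subgroup.centralizer ({d} : Set G)) : _ ⧸ _) := fun h => dif_pos h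
  refine ⟨f, ⟨mul_self_of_orderOf hd, ne_one_of_orderOf hd, fun {x y} hx hy => ?_, fun l => ?_, fun {x} hx => ?_⟩,
    fun x => hf x.2⟩
  · rw [hf (m hx), hf (m hy), hf (m (hx.mul_right hy)), ← map_mul, ← QuotientGroup.mk_mul]; rfl
  · obtain ⟨y, rfl⟩ := e.surjective l
    obtain ⟨x, rfl⟩ := QuotientGroup.mk_surjective y
    exact ⟨x.1, (Subgroup.mem_centralizer_singleton_iff.1 x.2).symm, hf x.2⟩
  · rw [hf (m hx), map_eq_one_iff _ e.injective, QuotientGroup.eq_one_iff, Subgroup.mem_subgroupOf]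
    exact ⟨eq_of_mem_zpowers (mul_self_of_orderOf hd), fun h => by
      rcases h with h | h
      · exact h ▸ Subgroup.one_mem _
      · exact h ▸ Subgroup.mem_zpowers _⟩

/-- an odd relation between commuting transpositions and one more commuting transposition -/
def OR (D' : Set L) : Prop := ∃ m l a y, PF D' (2 * m + 1) 1 l ∧ PF D' (2 * m + 2) y (a :: l)

namespace Cv
variable (h : Cv d f) {x y g : G}
include h

theorem one : f 1 = 1 := (h.ker (Commute.one_right d)).2 (.inl rfl)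
theorem fd : f d = 1 := (h.ker (Commute.refl d)).2 (.inr rfl)
theorem dinv : d⁻¹ = d := inv_of_mul_self h.sq
theorem inv (hx : Commute d x) : f x⁻¹ = (f x)⁻¹ :=
  eq_inv_of_mul_eq_one_left (by rw [← h.mul hx.inv_right hx, inv_mul_cancel, h.one])
theorem conj (hg : Commute d g) (hx : Commute d x) : f (g * x * g⁻¹) = f g * f x * (f g)⁻¹ := by
  rw [h.mul (hg.mul_right hx) hg.inv_right, h.mul hg hx, h.inv hg]
theorem dmul (hx : Commute d x) : f (d * x) = f x := by rw [h.mul (Commute.refl d) hx, h.fd, one_mul]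
theorem eq_or (hx : Commute d x) (hy : Commute d y) (e : f x = f y) : x = y ∨ x = d * y := by
  have := (h.ker (hx.mul_right hy.inv_right)).1 (by rw [h.mul hx hy.inv_right, h.inv hy, e, mul_inv_cancel])
  exact this.imp mul_inv_eq_one.1 mul_inv_eq_iff_eq_mul.1
theorem map_comm (hx : Commute d x) (hy : Commute d y) (e : Commute x y) : Commute (f x) (f y) := by
  show _ = _; rw [← h.mul hx hy, ← h.mul hy hx, e.eq]
theorem prod : ∀ {l : List G}, (∀ a ∈ l, Commute d a) → Commute d l.prod ∧ f l.prod = (l.map f).prod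
  | [], _ => ⟨Commute.one_right d, h.one⟩
  | a :: l, hl => by
    obtain ⟨h1, h2⟩ := prod (l := l) fun b hb => hl b (by simp [hb])
    have ha := hl a (by simp)
    rw [List.prod_cons, List.map_cons, List.prod_cons, h.mul ha h1, h2]
    exact ⟨ha.mul_right h1, rfl⟩
theorem lift (l : List L) : ∃ s : List G, s.map f = l ∧ ∀ x ∈ s, Commute d x :=
  exists_lift (P := fun x => Commute d x) fun y _ => h.surj y
theorem dd_ne (x : G) : d * x ≠ x := fun e => h.ne (mul_right_cancel (e.trans (one_mul x).symm))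

theorem lift_conj (hx : Commute d x) (hy : Commute d y) (e : IsConj (f x) (f y)) :
    ∃ g, Commute d g ∧ (y = g * x * g⁻¹ ∨ y = d * (g * x * g⁻¹)) := by
  obtain ⟨g, hg⟩ := isConj_iff.1 e
  obtain ⟨g, h1, rfl⟩ := h.surj g
  exact ⟨g, h1, h.eq_or hy ((h1.mul_right hx).mul_right h1.inv_right) (by rw [h.conj h1 hx, hg])⟩

theorem anti {a : G} : ∀ {s : List G}, (∀ b ∈ s, Commute d b ∧ a * b = d * (b * a)) →
    a * s.prod = d ^ s.length * (s.prod * a)
  | [], _ => by simp
  | b :: s, hs => by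
    have h1 := anti (s := s) fun c hc => hs c (by simp [hc])
    obtain ⟨h2, h3⟩ := hs b (by simp)
    rw [List.prod_cons, List.length_cons, ← mul_assoc, h3, mul_assoc, mul_assoc, h1, pow_succ',
      ← mul_assoc b, ← (h2.pow_left _).eq]
    simp only [mul_assoc]

theorem pow_odd (m : ℕ) : d ^ (2 * m + 1) = d := by rw [pow_succ, pow_mul, pow_two, h.sq, one_pow, one_mul]

variable [Finite L] (hP : Prim D') (hO : OR D')
include hP hO

theorem comm_lift (hx : Commute d x) (hy : Commute d y) (h1 : f x ∈ D') (h2 : f y ∈ D') (e : Commute (f x) (f y)) :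
    Commute x y := by
  by_contra hn
  have k : ∀ {x y}, Commute d x → Commute d y → Commute (f x) (f y) → ¬ Commute x y → x * y = d * (y * x) :=
    fun {x y} hx hy e hn => (h.eq_or (hx.mul_right hy) (hy.mul_right hx)
      (by rw [h.mul hx hy, h.mul hy hx, e.eq])).resolve_left hn
  have hne : f x ≠ f y := fun e' => hn (by
    rcases h.eq_or hx hy e' with rfl | rfl
    exacts [Commute.refl _, hy.mul_left (Commute.refl _)])
  have key : ∀ a b, Commute d a → Commute d b → f a ∈ D' → f b ∈ D' → f a ≠ f b → Commute (f a) (f b) →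
      a * b = d * (b * a) := fun a b ha hb h3 h4 h5 h6 => k ha hb h6 fun hc => by
    obtain ⟨g, e1, e2⟩ := trans_pair hP h3 h4 h1 h2 h5 hne h6 e
    obtain ⟨g, hg, rfl⟩ := h.surj g
    rw [← h.conj hg ha] at e1
    rw [← h.conj hg hb] at e2
    have c := (commute_conj_iff g a b).2 hc
    have ca := (hg.mul_right ha).mul_right hg.inv_right
    have cb := (hg.mul_right hb).mul_right hg.inv_right
    refine hn ?_
    rcases h.eq_or hx ca e1.symm with rfl | rfl <;> rcases h.eq_or hy cb e2.symm with rfl | rfl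
    exacts [c, ca.symm.mul_right c, cb.mul_left c, ((Commute.refl d).mul_right cb).mul_left (ca.symm.mul_right c)]
  obtain ⟨m, l, a, z, hl, hl'⟩ := hO
  obtain ⟨s, rfl, hs⟩ := h.lift l
  obtain ⟨a, ha, rfl⟩ := h.surj a
  have h3 := h.anti (a := a) (s := s) fun b hb => ⟨hs b hb, key a b ha (hs b hb) (hl'.2.2.1 _ (by simp))
    (hl.2.2.1 _ (List.mem_map_of_mem hb)) (fun e => (List.nodup_cons.1 hl'.1).1 (e ▸ List.mem_map_of_mem hb))
    (hl'.2.2.2.1 _ (by simp) _ (List.mem_cons_of_mem _ (List.mem_map_of_mem hb)))⟩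
  have h4 := h.prod hs
  rw [show s.length = 2 * m + 1 by simpa using hl.2.1, h.pow_odd] at h3
  rcases (h.ker h4.1).1 (h4.2.trans hl.2.2.2.2) with e | e <;> rw [e] at h3
  · exact h.dd_ne a (by simpa using h3.symm)
  · exact h.dd_ne _ (h3.symm.trans ha.eq.symm)

omit hP hO in
theorem sq_prod {c : G} : ∀ {s : List G}, (∀ a ∈ s, a * a = c) → (∀ a ∈ s, ∀ b ∈ s, Commute a b) →
    s.prod * s.prod = c ^ s.length
  | [], _, _ => by simp
  | a :: s, h1, h2 => by
    have h3 := sq_prod (s := s) (fun b hb => h1 b (by simp [hb])) fun b hb c hc => h2 b (by simp [hb]) c (by simp [hc])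
    have h4 : Commute a s.prod := Commute.list_prod_right _ _ fun b hb => h2 a (by simp) b (by simp [hb])
    rw [List.prod_cons, List.length_cons, pow_succ', ← h3, ← h1 a (by simp), mul_assoc, ← mul_assoc s.prod, ← h4.eq]
    simp only [mul_assoc]

omit hP hO in
theorem dsq (hx : Commute d x) : d * x * (d * x) = x * x := by
  rw [mul_assoc, ← mul_assoc x, ← hx.eq, mul_assoc, cancel_left h.sq]

theorem sq_lift (hx : Commute d x) (h1 : f x ∈ D') : x * x = 1 := by
  by_contra hn
  have k : ∀ {y}, Commute d y → f y ∈ D' → y * y = d := fun {y} hy h2 => by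
    refine ((h.ker (hy.mul_right hy)).1 (by rw [h.mul hy hy, Tr3Basic.sq hP.set h2])).resolve_left fun e => hn ?_
    obtain ⟨g, hg, e'⟩ := h.lift_conj hy hx (isConj_iff.2 (class_trans hP.cls h2 h1))
    have : g * y * g⁻¹ * (g * y * g⁻¹) = 1 := by rw [conj_mul, e]; simp
    rcases e' with rfl | rfl
    · exact this
    · rw [h.dsq ((hg.mul_right hy).mul_right hg.inv_right), this]
  obtain ⟨m, l, a, z, hl, -⟩ := id hO
  obtain ⟨s, rfl, hs⟩ := h.lift l
  have h2 : ∀ b ∈ s, f b ∈ D' := fun b hb => hl.2.2.1 _ (List.mem_map_of_mem hb)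
  have h3 := h.sq_prod (s := s) (fun b hb => k (hs b hb) (h2 b hb)) fun b hb c hc => h.comm_lift hP hO (hs b hb) (hs c hc)
    (h2 b hb) (h2 c hc) (hl.2.2.2.1 _ (List.mem_map_of_mem hb) _ (List.mem_map_of_mem hc))
  have h4 := h.prod hs
  rw [show s.length = 2 * m + 1 by simpa using hl.2.1, h.pow_odd] at h3
  rcases (h.ker h4.1).1 (h4.2.trans hl.2.2.2.2) with e | e <;> rw [e] at h3
  · exact h.ne (by simpa using h3.symm)
  · exact h.ne (h3.symm.trans h.sq)

theorem sq_pf {m : ℕ} {l : List L} (hx : Commute d x) (hl : PF D' m (f x) l) : x * x = 1 := by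
  obtain ⟨s, rfl, hs⟩ := h.lift l
  have h2 : ∀ b ∈ s, f b ∈ D' := fun b hb => hl.2.2.1 _ (List.mem_map_of_mem hb)
  have h3 := h.sq_prod (s := s) (fun b hb => h.sq_lift hP hO (hs b hb) (h2 b hb)) fun b hb c hc =>
    h.comm_lift hP hO (hs b hb) (hs c hc) (h2 b hb) (h2 c hc)
      (hl.2.2.2.1 _ (List.mem_map_of_mem hb) _ (List.mem_map_of_mem hc))
  have h4 := h.prod hs
  rw [one_pow] at h3
  rcases h.eq_or hx h4.1 (h4.2.trans hl.2.2.2.2).symm with rfl | rfl
  · exact h3
  · rw [h.dsq h4.1, h3]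

end Cv

/-- every involution is a product of commuting transpositions -/
def IP (D' : Set L) : Prop := ∀ x : L, x * x = 1 → ∃ m l, PF D' m x l

theorem Cv.sq_all [Finite L] (h : Cv d f) (hP : Prim D') (hO : OR D') (hI : IP D') {x : G} (hx : Commute d x)
    (e : f x * f x = 1) : x * x = 1 :=
  let ⟨_, _, hl⟩ := hI _ e; h.sq_pf hP hO hx hl

theorem lift_stmt [Finite L] (hd : orderOf d = 2)
    [((Subgroup.zpowers d).subgroupOf (Subgroup.centralizer ({d} : Set G))).Normal]
    (e : Subgroup.centralizer ({d} : Set G) ⧸ (Subgroup.zpowers d).subgroupOf (Subgroup.centralizer ({d} : Set G)) ≃* L)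
    (hP : Prim D') (hO : OR D') (hI : IP D') :
    (∀ x : Subgroup.centralizer ({d} : Set G) ⧸ (Subgroup.zpowers d).subgroupOf (Subgroup.centralizer ({d} : Set G)),
      orderOf x = 2 → ∃ y : Subgroup.centralizer ({d} : Set G), orderOf y = 2 ∧ QuotientGroup.mk y = x) ∧
    ¬ ∃ g : G, g ^ 2 = d := by
  obtain ⟨f, h, hf⟩ := exists_cv hd e
  refine ⟨fun x hx => ?_, fun ⟨g, hg⟩ => ?_⟩
  · obtain ⟨y, rfl⟩ := QuotientGroup.mk_surjective x
    refine ⟨y, orderOf_eq_two (Subtype.ext (h.sq_all hP hO hI (Subgroup.mem_centralizer_singleton_iff.1 y.2).symm ?_))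
      fun e' => ne_one_of_orderOf hx (by rw [e']; rfl), rfl⟩
    rw [hf, ← map_mul, mul_self_of_orderOf hx, map_one]
  · have c : Commute d g := by rw [← hg]; exact (Commute.refl g).pow_left 2
    have := h.sq_all hP hO hI c (by rw [← h.mul c c, ← pow_two, hg, h.fd])
    exact h.ne (by rw [← hg, pow_two, this])

theorem or21 (M : M21 L D') : OR D' :=
  ⟨2, _, _, _, M.pf good21 base21 [[26,16,6,14,8,6], [14,16,6,14,8,6], [14,16,6,8,10,26,12,10,8,6],
      [26,16,6,8,10,26,12,10,8,6], [6,14,16,26,8,6,14,16,10,8,6,14,12,10,8,6]] [] (by decide +kernel),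
    M.pf' good21 M.msk_full (ws := [[], [26,16,6,14,8,6], [14,16,6,14,8,6], [14,16,6,8,10,26,12,10,8,6],
      [26,16,6,8,10,26,12,10,8,6], [6,14,16,26,8,6,14,16,10,8,6,14,12,10,8,6]]) (by decide +kernel)⟩

theorem or22 (M : M22 L D') : OR D' :=
  ⟨3, _, _, _, M.pf good22 base22 [[], [2,0,4,2], [26,2,0,16,26,2], [6,4,2,0,8,6,4,2], [26,2,4,16,26,2],
      [2,4,14,16,26,2], [2,0,14,16,26,2]] [] (by decide +kernel),
    M.pf' good22 M.msk_full (ws := [[10,12,26,2,0,10,26,2], [], [2,0,4,2], [26,2,0,16,26,2], [6,4,2,0,8,6,4,2],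
      [26,2,4,16,26,2], [2,4,14,16,26,2], [2,0,14,16,26,2]]) (by decide +kernel)⟩

theorem pf21n (M : M21 L D') : PF D' 3 (M.e [4,8,26]) ([[], [6,8,4,6], [10,8,6,4,26,10,8,6]].map fun w => M.t (M.p w)) :=
  M.pf good21 base21 _ _ (by decide +kernel)

theorem ip21 (M : M21 L D') : IP D' := fun x hx => by
  rcases inv21 M (x := x) (by rw [pow_two, hx]) with e | e | e | e
  · exact ⟨0, _, e ▸ pf_one⟩
  · exact ⟨1, PF.of_isConj M.prim ⟨_, pf21c M⟩ e⟩
  · exact ⟨2, PF.of_isConj M.prim ⟨_, pf21e M⟩ e⟩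
  · exact ⟨3, PF.of_isConj M.prim ⟨_, pf21n M⟩ e⟩

theorem ip22 (M : M22 L D') : IP D' := fun x hx => let ⟨m, _, h⟩ := inv22 M x hx; ⟨m, h⟩

end CA.FiZ
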