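import Cfsg.Agent.Lib.Fi.MZ1
import Cfsg.Agent.Lib.Fi.FiAut
import Cfsg.Agent.Lib.Grp.SchurHopf

/-! Double covers of a perfect group with a small multiplier. -/

set_option autoImplicit false
set_option linter.unusedVariables false
set_option linter.unusedSectionVars false
set_option maxRecDepth 100000

namespace CA.FiZ
open Cfsg CA.SchurHopf

/-- a perfect double cover with kernel `⟨z⟩` -/
structure Dbl {K L : Type*} [Group K] [Group L] (σ : K →* L) (z : K) : Prop where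
  surj : Function.Surjective σ
  cen : ∀ x, Commute z x
  ne : z ≠ 1
  ker : ∀ x, σ x = 1 ↔ x = 1 ∨ x = z
  perf : commutator K = ⊤

namespace Dbl
variable {K K' L : Type*} [Group K] [Group K'] [Group L] {σ : K →* L} {z : K} {σ' : K' →* L} {z' : K'}
  (h : Dbl σ z)
include h

theorem hc : σ.ker ≤ Subgroup.center K := fun x hx => Subgroup.mem_center_iff.2 fun y => by
  rcases (h.ker x).1 hx with rfl | rfl
  exacts [by simp, (h.cen y).symm]

theorem sq : z * z = 1 := ((h.ker (z * z)).1 (by rw [map_mul, (h.ker z).2 (.inr rfl), mul_one])).resolve_right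
  fun e => h.ne (mul_left_cancel (e.trans (mul_one z).symm))

theorem eq_or {x y : K} (e : σ x = σ y) : x = y ∨ x = y * z := by
  have := (h.ker (y⁻¹ * x)).1 (by rw [map_mul, map_inv, e, inv_mul_cancel])
  exact this.imp (fun e => (inv_mul_eq_one.1 e).symm) inv_mul_eq_iff_eq_mul.1

theorem comp (α : L ≃* L) : Dbl (α.toMonoidHom.comp σ) z :=
  ⟨α.surjective.comp h.surj, h.cen, h.ne, fun x => (map_eq_one_iff α α.injective).trans (h.ker x), h.perf⟩

/-- the lift to the universal extension -/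
noncomputable def lf : E (can L) →* K := (exists_lift (can L) σ h.surj h.hc).choose

theorem lf_eq (x : E (can L)) : σ (h.lf x) = pE (can L) x :=
  DFunLike.congr_fun (exists_lift (can L) σ h.surj h.hc).choose_spec x

theorem lf_surj : Function.Surjective (σ.comp h.lf) := fun l =>
  (pE_surj (can_surj L) l).imp fun x e => (h.lf_eq x).trans e

theorem lf_comm (k : K) : ∃ u ∈ commutator (E (can L)), h.lf u = k := by
  have := map_commutator_eq h.hc h.lf h.lf_surj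
  rw [h.perf] at this
  exact this.ge (Subgroup.mem_top k)

theorem lf_mul (x y : M (can L)) : h.lf (x * y : M (can L)) = 1 ↔ (h.lf x = 1 ↔ h.lf y = 1) := by
  have k : ∀ x : M (can L), h.lf x = 1 ∨ h.lf x = z := fun x => (h.ker _).1 ((h.lf_eq _).trans x.2.1)
  rw [Subgroup.coe_mul, map_mul]
  rcases k x with e | e <;> rcases k y with e' | e' <;> simp [e, e', h.ne, h.sq]

theorem lf_ex : ∃ x : M (can L), h.lf x ≠ 1 := by
  obtain ⟨u, h1, h2⟩ := h.lf_comm z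
  exact ⟨⟨u, (h.lf_eq u).symm.trans (by rw [h2]; exact (h.ker z).2 (.inr rfl)), h1⟩, fun e => h.ne (h2.symm.trans e)⟩

theorem ovr (h' : Dbl σ' z') (e : ∀ x : M (can L), h.lf x = 1 ↔ h'.lf x = 1) :
    ∃ ρ : K ≃* K', ∀ x, σ' (ρ x) = σ x := by
  let U := commutator (E (can L))
  have s : Function.Surjective (h.lf.comp U.subtype) := fun k => let ⟨u, h1, h2⟩ := h.lf_comm k; ⟨⟨u, h1⟩, h2⟩
  have k : (h.lf.comp U.subtype).ker ≤ (h'.lf.comp U.subtype).ker := fun x hx =>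
    (e ⟨x.1, (h.lf_eq _).symm.trans (by rw [show h.lf x.1 = 1 from hx, map_one]), x.2⟩).1 hx
  let ρ := (h.lf.comp U.subtype).liftOfSurjective s ⟨_, k⟩
  have r : ∀ u : U, ρ (h.lf u) = h'.lf u := fun u => MonoidHom.liftOfRightInverse_comp_apply _ _ _ _ u
  refine ⟨MulEquiv.ofBijective ρ ⟨(injective_iff_map_eq_one _).2 fun x hx => ?_, fun y => ?_⟩, fun x => ?_⟩
  · obtain ⟨u, rfl⟩ := s x
    have := (r u).symm.trans hx
    exact (e ⟨u.1, (h'.lf_eq _).symm.trans (by rw [this, map_one]), u.2⟩).2 this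
  · obtain ⟨u, h1, rfl⟩ := h'.lf_comm y
    exact ⟨_, r ⟨u, h1⟩⟩
  · obtain ⟨u, rfl⟩ := s x
    exact (congrArg σ' (r u)).trans ((h'.lf_eq _).trans (h.lf_eq _).symm)

theorem map_z (h' : Dbl σ' z') {ρ : K ≃* K'} {α : L ≃* L} (e : ∀ x, σ' (ρ x) = α (σ x)) : ρ z = z' :=
  ((h'.ker _).1 (by rw [e, (h.ker z).2 (.inr rfl), map_one])).resolve_left
    fun e => h.ne ((map_eq_one_iff ρ ρ.injective).1 e)

end Dbl

/-- the kernel of a map onto a group of order two -/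
def I2 {B : Type*} [Group B] (P : B → Prop) : Prop := (∀ x y, P (x * y) ↔ (P x ↔ P y)) ∧ ∃ x, ¬ P x

theorem I2.eq {B : Type*} [Group B] {u v : B} (hB : ∀ x : B, x * x * x = 1 ∨ x * x * x = u ∨ x * x * x = v ∨ x * x * x = u * v)
    {P Q : B → Prop} (hP : I2 P) : (P u → ¬ P v) ∧ (I2 Q → (P u ↔ Q u) → (P v ↔ Q v) → ∀ x, P x ↔ Q x) := by
  have k : ∀ {P : B → Prop}, I2 P → P 1 ∧ ∀ x, P (x * x * x) ↔ P x := fun {P} h =>
    ⟨by simpa using h.1 1 1, fun x => by rw [h.1, h.1]; simp⟩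
  refine ⟨fun h1 h2 => ?_, fun hQ h1 h2 x => ?_⟩
  · obtain ⟨x, hx⟩ := hP.2
    rw [← (k hP).2] at hx
    rcases hB x with e | e | e | e <;> rw [e] at hx
    exacts [hx (k hP).1, hx h1, hx h2, hx ((hP.1 _ _).2 (iff_of_true h1 h2))]
  · rw [← (k hP).2, ← (k hQ).2]
    rcases hB x with e | e | e | e <;> rw [e]
    exacts [iff_of_true (k hP).1 (k hQ).1, h1, h2, by rw [hP.1, hQ.1, h1, h2]]

section
variable {K K' L : Type*} [Group K] [Group K'] [Group L] [Finite L] {σ σ1 σ2 : K →* L} {z : K} {σ' : K' →* L} {z' : K'}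

theorem Dbl.i2 (h : Dbl σ z) : I2 fun x : M (can L) => h.lf x = 1 := ⟨h.lf_mul, h.lf_ex⟩

theorem over6 (hA : HasCyclicSchurMultiplier L 6) (h : Dbl σ z) (h' : Dbl σ' z') :
    ∃ ρ : K ≃* K', ∀ x, σ' (ρ x) = σ x := by
  obtain ⟨e⟩ := unique hA (has_can L)
  have hB : ∀ x : M (can L), x * x * x = 1 ∨ x * x * x = e (.ofAdd 3) ∨ x * x * x = e (.ofAdd 3) ∨
      x * x * x = e (.ofAdd 3) * e (.ofAdd 3) := fun x => by
    obtain ⟨x, rfl⟩ := e.surjective x
    rw [← map_mul, ← map_mul, ← map_mul, ← map_one e]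
    simp only [e.injective.eq_iff]
    revert x; decide
  have h1 := fun e => (h.i2.eq (Q := fun _ => True) hB).1 e e
  have h2 := fun e => (h'.i2.eq (Q := fun _ => True) hB).1 e e
  exact h.ovr h' ((h.i2.eq hB).2 h'.i2 (iff_of_false h1 h2) (iff_of_false h1 h2))

theorem over12 (hA : HasSchurMultiplier L (Multiplicative (ZMod 3 × ZMod 2 × ZMod 2))) (h : Dbl σ z)
    (h1 : Dbl σ1 z) (h2 : Dbl σ2 z) (n01 : ¬ ∃ ρ : K ≃* K, ∀ x, σ (ρ x) = σ1 x)
    (n02 : ¬ ∃ ρ : K ≃* K, ∀ x, σ (ρ x) = σ2 x) (n12 : ¬ ∃ ρ : K ≃* K, ∀ x, σ1 (ρ x) = σ2 x) (h' : Dbl σ' z') :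
    ∃ ρ : K' ≃* K, ρ z' = z := by
  obtain ⟨e⟩ := unique hA (has_can L)
  have hB : ∀ x : M (can L), x * x * x = 1 ∨ x * x * x = e (.ofAdd (0, 1, 0)) ∨ x * x * x = e (.ofAdd (0, 0, 1)) ∨
      x * x * x = e (.ofAdd (0, 1, 0)) * e (.ofAdd (0, 0, 1)) := fun x => by
    obtain ⟨x, rfl⟩ := e.surjective x
    rw [← map_mul, ← map_mul, ← map_mul, ← map_one e]
    simp only [e.injective.eq_iff]
    revert x; decide
  have k : ∀ {σ : K →* L} (h : Dbl σ z), (h'.lf (e (.ofAdd (0, 1, 0))) = 1 ↔ h.lf (e (.ofAdd (0, 1, 0))) = 1) →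
      (h'.lf (e (.ofAdd (0, 0, 1))) = 1 ↔ h.lf (e (.ofAdd (0, 0, 1))) = 1) → ∃ ρ : K' ≃* K, ρ z' = z :=
    fun h a b => (h'.ovr h ((h'.i2.eq hB).2 h.i2 a b)).imp fun ρ hρ => h'.map_z h (α := .refl L) hρ
  have a0 := (h.i2.eq (Q := fun _ => True) hB).1
  have a1 := (h1.i2.eq (Q := fun _ => True) hB).1
  have a2 := (h2.i2.eq (Q := fun _ => True) hB).1
  have a3 := (h'.i2.eq (Q := fun _ => True) hB).1
  have b01 := fun a b => n01 (h1.ovr h ((h1.i2.eq hB).2 h.i2 a b))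
  have b02 := fun a b => n02 (h2.ovr h ((h2.i2.eq hB).2 h.i2 a b))
  have b12 := fun a b => n12 (h2.ovr h1 ((h2.i2.eq hB).2 h1.i2 a b))
  by_contra hn
  have c0 := fun a b => hn (k h a b)
  have c1 := fun a b => hn (k h1 a b)
  have c2 := fun a b => hn (k h2 a b)
  clear k hn hB n01 n02 n12
  generalize (h.lf (e (.ofAdd (0, 1, 0))) = 1) = p0, (h.lf (e (.ofAdd (0, 0, 1))) = 1) = q0,
    (h1.lf (e (.ofAdd (0, 1, 0))) = 1) = p1, (h1.lf (e (.ofAdd (0, 0, 1))) = 1) = q1,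
    (h2.lf (e (.ofAdd (0, 1, 0))) = 1) = p2, (h2.lf (e (.ofAdd (0, 0, 1))) = 1) = q2,
    (h'.lf (e (.ofAdd (0, 1, 0))) = 1) = p3, (h'.lf (e (.ofAdd (0, 0, 1))) = 1) = q3 at *
  by_cases p0 <;> by_cases q0 <;> by_cases p1 <;> by_cases q1 <;> by_cases p2 <;> by_cases q2 <;>
    by_cases p3 <;> by_cases q3 <;> simp_all

end

end CA.FiZ
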