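import Cfsg.Agent.Lib.Fi.LocT

/-! Normalisers of subgroups whose centralisers meet `D` in two commuting groups `S₃`. -/

set_option autoImplicit false
set_option linter.unusedVariables false
set_option linter.unusedSimpArgs false

namespace CA.S33
open Cfsg Subgroup CA.Tr3Basic CA.LocG CA.LocG3 CA.LocT

variable {G : Type*} [Group G] {D : Set G}

def S3 (a d : G) : Set G := {a, d, a * d * a⁻¹}

structure P3 (a d : G) : Prop where
  aa : a * a = 1
  dd : d * d = 1
  br : a * d * a = d * a * d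
  nc : ¬ Commute a d

theorem S3_le (a d : G) : S3 a d ⊆ closure {a, d} := by
  have h1 : a ∈ closure ({a, d} : Set G) := subset_closure (by simp)
  have h2 : d ∈ closure ({a, d} : Set G) := subset_closure (by simp)
  rintro _ (rfl | rfl | rfl)
  exacts [h1, h2, mul_mem (mul_mem h1 h2) (inv_mem h1)]

theorem P3.pair {a d u v : G} (h : P3 a d) (hu : u ∈ S3 a d) (hv : v ∈ S3 a d) (e : u ≠ v) :
    ∃ t ∈ closure ({a, d} : Set G), t * a * t⁻¹ = u ∧ t * d * t⁻¹ = v := by
  have h1 : a ∈ closure ({a, d} : Set G) := subset_closure (by simp)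
  have h2 : d ∈ closure ({a, d} : Set G) := subset_closure (by simp)
  have ia := inv_of_mul_self h.aa
  have id := inv_of_mul_self h.dd
  have a1 : ∀ x, a * (a * x) = x := fun x => by rw [← mul_assoc, h.aa, one_mul]
  have d1 : ∀ x, d * (d * x) = x := fun x => by rw [← mul_assoc, h.dd, one_mul]
  have b1 : ∀ x, d * (a * (d * x)) = a * (d * (a * x)) := fun x => by simp only [← mul_assoc, h.br]
  have b2 : d * (a * d) = a * (d * a) := by simp only [← mul_assoc, h.br]
  rcases hu with rfl | rfl | rfl <;> rcases hv with rfl | rfl | rfl <;> first | exact absurd rfl e | skip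
  exacts [⟨1, one_mem _, by simp⟩, ⟨u, h1, by simp⟩,
    ⟨v * u * v, mul_mem (mul_mem h1 h2) h1, by simp [mul_assoc, ia, id, a1, d1, b1, b2, h.aa, h.dd]⟩,
    ⟨a * u, mul_mem h1 h2, by simp [mul_assoc, ia, id, a1, d1, b1, b2, h.aa, h.dd]⟩,
    ⟨d * v, mul_mem h2 h1, by simp [mul_assoc, ia, id, a1, d1, b1, b2, h.aa, h.dd]⟩,
    ⟨v, h2, by simp [mul_assoc, ia, id, a1, d1, b1, b2, h.aa, h.dd]⟩]

theorem P3.eq {a d u v : G} (h : P3 a d) (hu : u ∈ S3 a d) (hv : v ∈ S3 a d) (e : Commute u v) : u = v := by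
  by_contra h1
  obtain ⟨t, -, rfl, rfl⟩ := h.pair hu hv h1
  exact h.nc ((commute_conj_iff _ _ _).1 e)

theorem comm {a d b c : G} (h1 : Commute a b) (h2 : Commute a c) (h3 : Commute d b) (h4 : Commute d c) :
    ∀ u ∈ closure ({a, d} : Set G), ∀ w ∈ closure ({b, c} : Set G), Commute u w := fun u hu w hw => by
  have : closure ({a, d} : Set G) ≤ centralizer (closure ({b, c} : Set G) : Set G) := by
    rw [centralizer_closure, closure_le]
    rintro _ (rfl | rfl) _ (rfl | rfl)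
    exacts [h1.symm, h2.symm, h3.symm, h4.symm]
  exact (this hu w hw).symm

/-- a non-commuting pair and an element commuting with it -/
theorem side {a d b c u v w : G} (h : P3 a d) (hc : ∀ u ∈ S3 a d, ∀ w ∈ S3 b c, Commute u w) (hu : u ∈ S3 a d)
    (hv : v ∈ S3 a d ∪ S3 b c) (hw : w ∈ S3 a d ∪ S3 b c) (e : ¬ Commute u v) (e1 : Commute u w) (e2 : Commute v w) :
    v ∈ S3 a d ∧ w ∈ S3 b c ∧ w ∉ S3 a d := by
  have h1 := hv.resolve_right fun h1 => e (hc _ hu _ h1)
  have h2 : w ∉ S3 a d := fun h2 => e ((h.eq hu h2 e1) ▸ e2.symm)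
  exact ⟨h1, hw.resolve_left h2, h2⟩

theorem main [Finite G] (hD : ∀ g, ∀ d ∈ D, g * d * g⁻¹ ∈ D) {a b c d s : G} (h : P3 a d) (h' : P3 b c)
    (h1 : Commute a b) (h2 : Commute a c) (h3 : Commute d b) (h4 : Commute d c) {B T K : Subgroup G}
    (hT : T = closure {a, b, c, d}) (hK : K = centralizer (T : Set G))
    (hS : D ∩ (centralizer (B : Set G) : Set G) = S3 a d ∪ S3 b c) (hs : s ∈ normalizer (B : Set G))
    (e : s * a * s⁻¹ = b) : normalizer (B : Set G) ≤ normalizer (K : Set G) ∧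
      (((K ⊓ normalizer (B : Set G)) ⊔ T).subgroupOf (normalizer (B : Set G))).index = 2 := by
  have l1 : closure {a, d} ≤ T := hT ▸ closure_mono (by rintro _ (rfl | rfl) <;> simp)
  have l2 : closure {b, c} ≤ T := hT ▸ closure_mono (by rintro _ (rfl | rfl) <;> simp)
  have ma : a ∈ S3 a d := Or.inl rfl
  have md : d ∈ S3 a d := Or.inr (Or.inl rfl)
  have mb : b ∈ S3 b c := Or.inl rfl
  have mc : c ∈ S3 b c := Or.inr (Or.inl rfl)
  have hT' : closure (D ∩ (centralizer (B : Set G) : Set G)) = T := by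
    rw [hS]
    refine le_antisymm ((closure_le _).2 (Set.union_subset ((S3_le _ _).trans l1) ((S3_le _ _).trans l2))) ?_
    rw [hT]
    refine closure_mono ?_
    rintro _ (rfl | rfl | rfl | rfl)
    exacts [Or.inl ma, Or.inr mb, Or.inr mc, Or.inl md]
  have cm := comm h1 h2 h3 h4
  have hc : ∀ u ∈ S3 a d, ∀ w ∈ S3 b c, Commute u w := fun u hu w hw => cm u (S3_le _ _ hu) w (S3_le _ _ hw)
  have TN : T ≤ normalizer (B : Set G) :=
    hT' ▸ ((closure_le _).2 Set.inter_subset_right).trans (centralizer_le_normalizer _)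
  have cj : ∀ g ∈ normalizer (B : Set G), ∀ u ∈ S3 a d ∪ S3 b c, g * u * g⁻¹ ∈ S3 a d ∪ S3 b c :=
    fun g hg u hu => hS.le (cj_fix hD hg (hS.ge hu))
  have sd : ∀ g ∈ normalizer (B : Set G), g * a * g⁻¹ ∈ S3 a d → ∀ w ∈ S3 b c,
      g * d * g⁻¹ ∈ S3 a d ∧ g * w * g⁻¹ ∈ S3 b c ∧ g * w * g⁻¹ ∉ S3 a d := fun g hg ha w hw =>
    side h hc ha (cj g hg _ (Or.inl md)) (cj g hg _ (Or.inr hw)) (mt (commute_conj_iff _ _ _).1 h.nc)
      ((commute_conj_iff _ _ _).2 (hc _ ma _ hw)) ((commute_conj_iff _ _ _).2 (hc _ md _ hw))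
  have k : ∀ g : normalizer (B : Set G), g ∈ ((K ⊓ normalizer (B : Set G)) ⊔ T).subgroupOf (normalizer (B : Set G)) ↔
      g.1 * a * g.1⁻¹ ∈ S3 a d := fun g => by
    rw [mem_subgroupOf]
    constructor
    · intro hg
      have fx : ∀ x : G, (∀ u ∈ S3 a d, x * u * x⁻¹ ∈ S3 a d) → x ∈ normalizer (S3 a d) := fun x hx => by
        have : Finite (S3 a d) := inferInstance
        exact mem_normalizer_fintype hx
      have fc : ∀ x : G, (∀ u ∈ S3 a d, Commute x u) → x ∈ normalizer (S3 a d) := fun x hx =>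
        fx x fun u hu => ((conj_eq_iff_commute _ _).2 (hx u hu)).symm ▸ hu
      have fi : ∀ x ∈ S3 a d, x ∈ normalizer (S3 a d) := fun x hx => fx x fun u hu =>
        (cj x (TN (l1 (S3_le _ _ hx))) u (Or.inl hu)).resolve_right fun h5 => by
          have h6 : Commute u (x * u * x⁻¹) := hc _ hu _ h5
          have h7 : x * u * x⁻¹ = u := by
            have := (hc x hx _ h5).eq
            have h8 : x * (x * u * x⁻¹) * x⁻¹ = x * u * x⁻¹ := by rw [this, mul_inv_cancel_right]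
            exact conj_inj.1 h8
          rw [h7] at h5
          exact h.nc (h.eq hu ma (hc _ ma _ h5).symm ▸ (hc _ md _ h5).symm)
      have : (K ⊓ normalizer (B : Set G)) ⊔ T ≤ normalizer (S3 a d) := by
        refine sup_le (fun x hx => fc x fun u hu => ((hK.le hx.1) u (l1 (S3_le _ _ hu))).symm) ?_
        rw [hT, closure_le]
        rintro _ (rfl | rfl | rfl | rfl)
        exacts [fi _ ma, fc _ fun u hu => (hc u hu _ mb).symm, fc _ fun u hu => (hc u hu _ mc).symm, fi _ md]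
      exact (mem_set_normalizer_iff.1 (this hg) a).1 ma
    · intro ha
      obtain ⟨f1, f2, -⟩ := sd g g.2 ha b mb
      obtain ⟨t, ht, e1, e2⟩ := h.pair ha f1 fun e => h.nc (conj_inj.1 e ▸ Commute.refl _)
      obtain ⟨r, hr, e3, e4⟩ := h'.pair f2 (sd g g.2 ha c mc).2.1 fun e => h'.nc (conj_inj.1 e ▸ Commute.refl _)
      have m : t * r ∈ T := mul_mem (l1 ht) (l2 hr)
      have q : ∀ x, t * r * x * (t * r)⁻¹ = g.1 * x * g.1⁻¹ → x * ((t * r)⁻¹ * g.1) = (t * r)⁻¹ * g.1 * x :=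
        fun x hx => by
          calc _ = (t * r)⁻¹ * (t * r * x * (t * r)⁻¹) * g.1 := by group
            _ = _ := by rw [hx]; group
      have q1 : ∀ x ∈ S3 a d, t * r * x * (t * r)⁻¹ = t * x * t⁻¹ := fun x hx => by
        rw [mul_assoc t r, ← (cm x (S3_le _ _ hx) r hr).eq]; group
      have q2 : ∀ x ∈ S3 b c, t * r * x * (t * r)⁻¹ = r * x * r⁻¹ := fun x hx => by
        rw [(cm t ht r hr).eq, mul_assoc r t, (cm t ht x (S3_le _ _ hx)).eq]; group
      rw [← mul_inv_cancel_left (t * r) g.1]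
      refine mul_mem (mem_sup_right m) (mem_sup_left ⟨?_, (normalizer (B : Set G)).mul_mem (inv_mem (TN m)) g.2⟩)
      rw [hK, hT, centralizer_closure]
      rintro _ (rfl | rfl | rfl | rfl)
      exacts [q _ ((q1 _ ma).trans e1), q _ ((q2 _ mb).trans e3), q _ ((q2 _ mc).trans e4), q _ ((q1 _ md).trans e2)]
  refine ⟨(norm_clos hD _).trans (hK ▸ hT' ▸ norm_cent), index_eq_two_iff.2 ⟨⟨s, hs⟩, fun g => ?_⟩⟩
  rw [k, k, show (g * ⟨s, hs⟩ : normalizer (B : Set G)).1 * a * (g * ⟨s, hs⟩ : normalizer (B : Set G)).1⁻¹ =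
    g.1 * b * g.1⁻¹ by rw [← e]; simp [mul_assoc]]
  by_cases ha : g.1 * a * g.1⁻¹ ∈ S3 a d
  · exact Or.inr ⟨ha, (sd g g.2 ha b mb).2.2⟩
  · refine Or.inl ⟨?_, ha⟩
    have u := Set.union_comm (S3 a d) (S3 b c)
    exact (side h' (fun u hu w hw => (hc w hw u hu).symm) ((cj g g.2 _ (Or.inl ma)).resolve_left ha)
      (u ▸ cj g g.2 _ (Or.inl md)) (u ▸ cj g g.2 _ (Or.inr mb)) (mt (commute_conj_iff _ _ _).1 h.nc)
      ((commute_conj_iff _ _ _).2 h1) ((commute_conj_iff _ _ _).2 h3)).2.1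

end CA.S33
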